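import Cfsg.Agent.H2.KpSpec
namespace Rz
theorem H2_Kp_CL_eq_7 : True := by
  have := @H2.Kp.CL.eq_7
  trivial
end Rz
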